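import Mathlib
import Cfsg.Agent.Lib.Helper95.OFX.Defs
import Cfsg.Agent.Lib.Helper20.OPar.Om1
import Cfsg.Agent.Lib.Helper43.OMinusBal.Group1
import Cfsg.Agent.Lib.Helper14.Forms
import Cfsg.Agent.Lib.Helper44.Gram

/-!
# OFX package [DERP]: `x = diag(A, A⁻ᵀ)`, `A = 1 + E₀₁`, has order `p`, lies in `Ω` and
`rank (x - 1) = 2`.
-/

set_option autoImplicit false

namespace Cfsg.Agent.Lib.Helper76.OFX

open Matrix Cfsg.Agent.Lib.Helper95.OFX

universe u

/-- Isometries of odd order lie in `omegaGL`. -/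
theorem mem_omegaGL_of_odd {F : Type u} [Field F] {ι : Type} [Fintype ι] [DecidableEq ι]
    (h2 : (2 : F) ≠ 0) (Q : QuadraticForm F (ι → F))
    (hQ : (QuadraticMap.polarBilin Q).Nondegenerate) (x : GL ι F)
    (hx : x ∈ Cfsg.isometryGroup F ⇑Q) (r : ℕ) (hr : Odd r) (hxr : x ^ r = 1) :
    x ∈ Cfsg.Geo.omegaGL ⇑Q :=
  ⟨⟨x, hx⟩, Cfsg.Agent.Lib.Helper43.OMinusBal.mem_omega_of_pow h2 Q hQ ⟨x, hx⟩ r hr
    (Subtype.ext hxr), rfl⟩

/-- Isometries of odd order of the plus form lie in `omegaGL`. -/
theorem mem_omegaGL_plus_of_odd {F : Type u} [Field F] (h2 : (2 : F) ≠ 0) (d : ℕ)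
    (x : GL (OI d) F) (hx : x ∈ Cfsg.isometryGroup F (Cfsg.quadFormPlus d F)) (r : ℕ)
    (hr : Odd r) (hxr : x ^ r = 1) : x ∈ Cfsg.Geo.omegaGL (Cfsg.quadFormPlus d F) := by
  have h := mem_omegaGL_of_odd h2 (Cfsg.Agent.Lib.Helper14.plusQF d F)
    (Cfsg.Agent.Lib.Helper14.plusQF_nondegenerate d F) x
    (by rw [Cfsg.Agent.Lib.Helper14.plusQF_coe]; exact hx) r hr hxr
  rw [Cfsg.Agent.Lib.Helper14.plusQF_coe] at h
  exact h

theorem transvection_pow {F : Type u} [Field F] {n : Type} [Fintype n] [DecidableEq n]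
    (i j : n) (h : i ≠ j) (c : F) (k : ℕ) :
    (Matrix.transvection i j c) ^ k = Matrix.transvection i j (k * c) := by
  induction k with
  | zero => simp
  | succ k ih =>
    rw [pow_succ, ih, Matrix.transvection_mul_transvection_same i j h]
    congr 1
    push_cast
    ring

theorem rank_add_le' {F : Type u} [Field F] {n : Type} [Fintype n] [DecidableEq n]
    (M N : Matrix n n F) : (M + N).rank ≤ M.rank + N.rank := by
  have h1 : LinearMap.range (M + N).mulVecLin
      ≤ LinearMap.range M.mulVecLin ⊔ LinearMap.range N.mulVecLin := by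
    rintro _ ⟨v, rfl⟩
    rw [Matrix.mulVecLin_add, LinearMap.add_apply]
    exact Submodule.add_mem_sup (LinearMap.mem_range_self _ _) (LinearMap.mem_range_self _ _)
  exact le_trans (Submodule.finrank_mono h1) (Submodule.finrank_add_le_finrank_add_finrank _ _)

theorem pkgDerP : PkgDerP.{u} := by
  intro F _ _ p _ _ hodd d hd
  have h2 : (2 : F) ≠ 0 := Cfsg.Agent.Lib.Helper44.two_ne_zero_of_odd_card hodd
  have hp2 : p ≠ 2 := by
    rintro rfl
    exact h2 (by exact_mod_cast CharP.cast_eq_zero F 2)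
  have hpodd : Odd p := (Fact.out : p.Prime).odd_of_ne_two hp2
  let i0 : Fin d := ⟨0, by omega⟩
  let i1 : Fin d := ⟨1, by omega⟩
  have h01 : i0 ≠ i1 := by
    intro h
    have := congrArg Fin.val h
    simp [i0, i1] at this
  let A : GL (Fin d) F := ⟨Matrix.transvection i0 i1 1, Matrix.transvection i0 i1 (-1),
    by rw [Matrix.transvection_mul_transvection_same i0 i1 h01, add_neg_cancel,
      Matrix.transvection_zero],
    by rw [Matrix.transvection_mul_transvection_same i0 i1 h01, neg_add_cancel,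
      Matrix.transvection_zero]⟩
  have hAp : A ^ p = 1 := by
    apply Units.ext
    rw [Units.val_pow_eq_pow_val]
    show (Matrix.transvection i0 i1 (1 : F)) ^ p = 1
    rw [transvection_pow i0 i1 h01, CharP.cast_eq_zero F p, zero_mul, Matrix.transvection_zero]
  let x : GL (OI d) F := Cfsg.Agent.Lib.Helper20.OPar.phi d A
  have hxp : x ^ p = 1 := by
    show (Cfsg.Agent.Lib.Helper20.OPar.phi d A) ^ p = 1
    rw [← map_pow, hAp, map_one]
  have hxiso : x ∈ Cfsg.isometryGroup F (Cfsg.quadFormPlus d F) :=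
    Cfsg.Agent.Lib.Helper20.OPar.phi_mem d A
  have hxval : (x : Matrix (OI d) (OI d) F) = Matrix.fromBlocks (Matrix.transvection i0 i1 1) 0 0
      (Matrix.transvection i0 i1 (-1))ᵀ := Cfsg.Agent.Lib.Helper20.OPar.phi_val d A
  have hentry : (x : Matrix (OI d) (OI d) F) (Sum.inl i0) (Sum.inl i1) = 1 := by
    rw [hxval, Matrix.fromBlocks_apply₁₁, Matrix.transvection, Matrix.add_apply,
      Matrix.one_apply_ne h01, Matrix.single_apply_same, zero_add]
  have hne : (Sum.inl i0 : OI d) ≠ Sum.inl i1 := fun h => h01 (Sum.inl_injective h)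
  refine ⟨x, mem_omegaGL_plus_of_odd h2 d x hxiso p hpodd hxp, ?_, ?_, ?_⟩
  · rw [← Units.val_pow_eq_pow_val, hxp]
    rfl
  · intro z hz
    have h1 := congrFun (congrFun hz (Sum.inl i0)) (Sum.inl i1)
    rw [hentry, Matrix.smul_apply, Matrix.one_apply_ne hne, smul_zero] at h1
    exact one_ne_zero h1
  · -- rank
    have hdec : (x : Matrix (OI d) (OI d) F) - 1
        = Matrix.vecMulVec (Pi.single (Sum.inl i0) 1) (Pi.single (Sum.inl i1) 1)
          + Matrix.vecMulVec (Pi.single (Sum.inr i1) (-1)) (Pi.single (Sum.inr i0) 1) := by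
      rw [hxval]
      ext (i | i) (j | j)
      · simp only [Matrix.sub_apply, Matrix.fromBlocks_apply₁₁, Matrix.transvection,
          Matrix.add_apply, Matrix.one_apply, Matrix.single_apply, Matrix.vecMulVec_apply,
          Pi.single_apply, Sum.inl.injEq, reduceCtorEq, if_false, mul_zero, add_zero]
        by_cases h1 : i = j <;> by_cases h3 : i = i0 <;> by_cases h4 : j = i1 <;>
          simp [h1, h3, h4, eq_comm]
      · simp [Matrix.vecMulVec_apply, Pi.single_apply]
      · simp [Matrix.vecMulVec_apply, Pi.single_apply]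
      · simp only [Matrix.sub_apply, Matrix.fromBlocks_apply₂₂, Matrix.transvection,
          Matrix.add_apply, Matrix.one_apply, Matrix.single_apply, Matrix.vecMulVec_apply,
          Pi.single_apply, Sum.inr.injEq, reduceCtorEq, if_false, mul_zero, zero_add,
          Matrix.transpose_apply]
        by_cases h1 : i = j <;> by_cases h3 : i = i1 <;> by_cases h4 : j = i0 <;>
          simp [h1, h3, h4, eq_comm]
    have hle : ((x : Matrix (OI d) (OI d) F) - 1).rank ≤ 2 := by
      rw [hdec]
      refine le_trans (rank_add_le' _ _) ?_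
      have h1 := Matrix.rank_vecMulVec_le (R := F) (Pi.single (Sum.inl i0 : OI d) (1 : F))
        (Pi.single (Sum.inl i1 : OI d) (1 : F))
      have h2' := Matrix.rank_vecMulVec_le (R := F) (Pi.single (Sum.inr i1 : OI d) (-1 : F))
        (Pi.single (Sum.inr i0 : OI d) (1 : F))
      omega
    have hpos : ((x : Matrix (OI d) (OI d) F) - 1).rank ≠ 0 := by
      intro h0
      have h1 : LinearMap.range ((x : Matrix (OI d) (OI d) F) - 1).mulVecLin = ⊥ :=
        Submodule.finrank_eq_zero.mp h0
      have h3 : ((x : Matrix (OI d) (OI d) F) - 1) *ᵥ (Pi.single (Sum.inl i1) 1) = 0 := by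
        have : ((x : Matrix (OI d) (OI d) F) - 1).mulVecLin (Pi.single (Sum.inl i1) 1)
            ∈ LinearMap.range ((x : Matrix (OI d) (OI d) F) - 1).mulVecLin :=
          LinearMap.mem_range_self _ _
        rw [h1, Submodule.mem_bot] at this
        exact this
      have h4 := congrFun h3 (Sum.inl i0)
      rw [Matrix.mulVec_single, Pi.zero_apply] at h4
      simp only [MulOpposite.op_one, one_smul, Matrix.col_apply, Matrix.sub_apply] at h4
      rw [hentry, Matrix.one_apply_ne hne, sub_zero] at h4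
      exact one_ne_zero h4
    intro h4
    obtain ⟨k, hk⟩ := h4
    omega

end Cfsg.Agent.Lib.Helper76.OFX
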