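import Mathlib

/-!
# Alternating forms with a self-adjoint square root of a non-square: rank `≡ 0 mod 4`

`alt4_finrank_aux`: `B` alternating on `V`, `α` an endomorphism with `α² = a` (a non-square),
`B (α u) v = B u (α v)`, `2 ≠ 0`: `dim V = dim ker B + 4 k`.

`four_dvd_rank_of_alt`: the matrix version.
-/

set_option autoImplicit false

namespace Cfsg.Agent.Lib.Helper76.OFX

open Module

universe u v

theorem alt4_finrank_aux (K : Type u) [Field K] (h2 : (2 : K) ≠ 0) (a : K) (ha : ¬ IsSquare a) :
    ∀ (d : ℕ) (V : Type v) [AddCommGroup V] [Module K V] [FiniteDimensional K V]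
      (B : LinearMap.BilinForm K V) (α : V →ₗ[K] V), B.IsAlt →
      (∀ x, α (α x) = a • x) → (∀ x y, B (α x) y = B x (α y)) → finrank K V = d →
      ∃ k, d = finrank K (LinearMap.ker B) + 4 * k := by
  intro d
  induction d using Nat.strong_induction_on with
  | _ d ih =>
    intro V _ _ _ B α hB hα hsa hd
    have ha0 : a ≠ 0 := by
      rintro rfl
      exact ha ⟨0, by simp⟩
    by_cases h0 : B = 0
    · refine ⟨0, ?_⟩
      subst h0
      rw [LinearMap.ker_zero, finrank_top, hd]
      omega
    · obtain ⟨u, v, huv⟩ : ∃ u v, B u v ≠ 0 := by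
        by_contra hcon
        apply h0
        ext x y
        by_contra hxy
        exact hcon ⟨x, y, hxy⟩
      -- `B x (α x) = 0`
      have hxα : ∀ x, B x (α x) = 0 := by
        intro x
        have h1 : B x (α x) = - B x (α x) := by
          calc B x (α x) = B (α x) x := (hsa x x).symm
            _ = - B x (α x) := (hB.neg_eq x (α x)).symm
        have h3 : (2 : K) * B x (α x) = 0 := by
          rw [two_mul]
          nth_rw 1 [h1]
          exact neg_add_cancel _
        rcases mul_eq_zero.mp h3 with h | h
        · exact absurd h h2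
        · exact h
      have hαx : ∀ x, B (α x) x = 0 := by
        intro x
        rw [hsa, hxα]
      have hαα : ∀ x y, B (α x) (α y) = a * B x y := by
        intro x y
        rw [hsa, hα, map_smul, smul_eq_mul]
      set s := B u v with hs
      set t := B (α u) v with ht
      let w : V := (a * s) • v - t • α v
      set c := a * s * s - t * t with hc
      have hc0 : c ≠ 0 := by
        intro h
        apply ha
        refine ⟨t / s, ?_⟩
        have h3 : a * s * s = t * t := sub_eq_zero.mp h
        have hs0 : s ≠ 0 := huv
        rw [div_mul_div_comm, ← h3, mul_assoc, mul_div_cancel_right₀ _ (mul_ne_zero hs0 hs0)]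
      have huw : B u w = c := by
        show B u ((a * s) • v - t • α v) = c
        rw [map_sub, map_smul, map_smul, ← hsa u v, smul_eq_mul, smul_eq_mul]
      have hαuw : B (α u) w = 0 := by
        show B (α u) ((a * s) • v - t • α v) = 0
        rw [map_sub, map_smul, map_smul, hαα, smul_eq_mul, smul_eq_mul]
        ring
      have hwu : B w u = -c := by rw [← hB.neg_eq u w, huw]
      have huαw : B u (α w) = 0 := by rw [← hsa, hαuw]
      have hαwu : B (α w) u = 0 := by rw [← hB.neg_eq u (α w), huαw, neg_zero]
      have hwαu : B w (α u) = 0 := by rw [← hB.neg_eq (α u) w, hαuw, neg_zero]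
      have hαuαw : B (α u) (α w) = a * c := by rw [hαα, huw]
      have hαwαu : B (α w) (α u) = -(a * c) := by rw [← hB.neg_eq (α u) (α w), hαuαw]
      have huu : B u u = 0 := hB.self_eq_zero u
      have hww : B w w = 0 := hB.self_eq_zero w
      have hαuαu : B (α u) (α u) = 0 := hB.self_eq_zero _
      have hαwαw : B (α w) (α w) = 0 := hB.self_eq_zero _
      have hac0 : a * c ≠ 0 := mul_ne_zero ha0 hc0
      let φ : V →ₗ[K] (K × K) × (K × K) := ((B u).prod (B (α u))).prod ((B w).prod (B (α w)))
      have hφ : ∀ x, φ x = ((B u x, B (α u) x), (B w x, B (α w) x)) := fun x => rfl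
      let W : Submodule K V := LinearMap.ker φ
      have hWmem : ∀ x, x ∈ W ↔ ((B u x = 0 ∧ B (α u) x = 0) ∧ (B w x = 0 ∧ B (α w) x = 0)) := by
        intro x
        show φ x = 0 ↔ _
        rw [hφ, Prod.mk_eq_zero, Prod.mk_eq_zero, Prod.mk_eq_zero]
      -- the projection onto `P`
      let π : K → K → K → K → V := fun p q r s' =>
        (p / c) • w + (q / (a * c)) • α w - (r / c) • u - (s' / (a * c)) • α u
      have hπu : ∀ p q r s', B u (π p q r s') = p := by
        intro p q r s'
        show B u ((p / c) • w + (q / (a * c)) • α w - (r / c) • u - (s' / (a * c)) • α u) = p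
        rw [map_sub, map_sub, map_add, map_smul, map_smul, map_smul, map_smul, huw, huαw, huu,
          hxα u]
        simp only [smul_eq_mul, mul_zero, add_zero, sub_zero]
        exact div_mul_cancel₀ _ hc0
      have hπαu : ∀ p q r s', B (α u) (π p q r s') = q := by
        intro p q r s'
        show B (α u) ((p / c) • w + (q / (a * c)) • α w - (r / c) • u - (s' / (a * c)) • α u) = q
        rw [map_sub, map_sub, map_add, map_smul, map_smul, map_smul, map_smul, hαuw, hαuαw,
          hαx u, hαuαu]
        simp only [smul_eq_mul, mul_zero, zero_add, sub_zero]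
        exact div_mul_cancel₀ _ hac0
      have hπw : ∀ p q r s', B w (π p q r s') = r := by
        intro p q r s'
        show B w ((p / c) • w + (q / (a * c)) • α w - (r / c) • u - (s' / (a * c)) • α u) = r
        rw [map_sub, map_sub, map_add, map_smul, map_smul, map_smul, map_smul, hww, hxα w,
          hwu, hwαu]
        simp only [smul_eq_mul, mul_zero, zero_add, sub_zero, add_zero, mul_neg, zero_sub,
          neg_neg]
        exact div_mul_cancel₀ _ hc0
      have hπαw : ∀ p q r s', B (α w) (π p q r s') = s' := by
        intro p q r s'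
        show B (α w) ((p / c) • w + (q / (a * c)) • α w - (r / c) • u - (s' / (a * c)) • α u) = s'
        rw [map_sub, map_sub, map_add, map_smul, map_smul, map_smul, map_smul, hαx w, hαwαw,
          hαwu, hαwαu]
        simp only [smul_eq_mul, mul_zero, zero_add, sub_zero, add_zero, mul_neg, zero_sub,
          neg_neg]
        exact div_mul_cancel₀ _ hac0
      have hsurj : Function.Surjective φ := by
        rintro ⟨⟨p, q⟩, ⟨r, s'⟩⟩
        refine ⟨π p q r s', ?_⟩
        rw [hφ, hπu, hπαu, hπw, hπαw]
      have hW : finrank K W + 4 = d := by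
        have h1 := LinearMap.finrank_range_add_finrank_ker φ
        rw [LinearMap.range_eq_top.mpr hsurj, finrank_top, Module.finrank_prod,
          Module.finrank_prod, Module.finrank_self, hd] at h1
        show finrank K (LinearMap.ker φ) + 4 = d
        omega
      let P : Submodule K V := Submodule.span K {u, α u, w, α w}
      have huP : u ∈ P := Submodule.subset_span (by simp)
      have hαuP : α u ∈ P := Submodule.subset_span (by simp)
      have hwP : w ∈ P := Submodule.subset_span (by simp)
      have hαwP : α w ∈ P := Submodule.subset_span (by simp)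
      have hπP : ∀ p q r s', π p q r s' ∈ P := by
        intro p q r s'
        exact Submodule.sub_mem _ (Submodule.sub_mem _ (Submodule.add_mem _
          (Submodule.smul_mem _ _ hwP) (Submodule.smul_mem _ _ hαwP))
          (Submodule.smul_mem _ _ huP)) (Submodule.smul_mem _ _ hαuP)
      have hcod : Codisjoint W P := by
        rw [Submodule.codisjoint_iff_exists_add_eq]
        intro y
        refine ⟨y - π (B u y) (B (α u) y) (B w y) (B (α w) y),
          π (B u y) (B (α u) y) (B w y) (B (α w) y), ?_, hπP _ _ _ _, by abel⟩
        rw [hWmem]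
        refine ⟨⟨?_, ?_⟩, ?_, ?_⟩
        · rw [map_sub, hπu, sub_self]
        · rw [map_sub, hπαu, sub_self]
        · rw [map_sub, hπw, sub_self]
        · rw [map_sub, hπαw, sub_self]
      have horth : ∀ x ∈ W, ∀ y ∈ P, B x y = 0 := by
        intro x hx y hy
        have hx' := (hWmem x).mp hx
        have hP : P ≤ LinearMap.ker (B x) := by
          apply Submodule.span_le.mpr
          intro z hz
          simp only [Set.mem_insert_iff, Set.mem_singleton_iff] at hz
          show B x z = 0
          rcases hz with rfl | rfl | rfl | rfl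
          · rw [← hB.neg_eq, hx'.1.1, neg_zero]
          · rw [← hB.neg_eq, hx'.1.2, neg_zero]
          · rw [← hB.neg_eq, hx'.2.1, neg_zero]
          · rw [← hB.neg_eq, hx'.2.2, neg_zero]
        exact hP hy
      have hker : LinearMap.ker (B.restrict W) = (LinearMap.ker B).comap W.subtype :=
        LinearMap.BilinForm.ker_restrict_eq_of_codisjoint hcod horth
      have hle : LinearMap.ker B ≤ W := by
        intro x hx
        have hx0 : B x = 0 := hx
        rw [hWmem]
        refine ⟨⟨?_, ?_⟩, ?_, ?_⟩
        · rw [← hB.neg_eq x u, hx0, LinearMap.zero_apply, neg_zero]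
        · rw [← hB.neg_eq x (α u), hx0, LinearMap.zero_apply, neg_zero]
        · rw [← hB.neg_eq x w, hx0, LinearMap.zero_apply, neg_zero]
        · rw [← hB.neg_eq x (α w), hx0, LinearMap.zero_apply, neg_zero]
      have hfin : finrank K (LinearMap.ker (B.restrict W)) = finrank K (LinearMap.ker B) := by
        rw [hker]
        exact (Submodule.comapSubtypeEquivOfLe hle).finrank_eq
      have hlt : finrank K W < d := by omega
      have hWα : ∀ x ∈ W, α x ∈ W := by
        intro x hx
        have hx' := (hWmem x).mp hx
        rw [hWmem]
        refine ⟨⟨?_, ?_⟩, ?_, ?_⟩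
        · rw [← hsa, hx'.1.2]
        · rw [hαα, hx'.1.1, mul_zero]
        · rw [← hsa, hx'.2.2]
        · rw [hαα, hx'.2.1, mul_zero]
      obtain ⟨k, hk⟩ := ih (finrank K W) hlt W (B.restrict W) (α.restrict hWα) (fun x => hB x)
        (fun x => by
          apply Subtype.ext
          show α (α (x : V)) = a • (x : V)
          exact hα x)
        (fun x y => hsa x y) rfl
      refine ⟨k + 1, ?_⟩
      rw [hfin] at hk
      omega

end Cfsg.Agent.Lib.Helper76.OFX
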