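import Mathlib
import Cfsg.Prelude.Def_Classical
import Cfsg.Agent.Lib.Helper44.Gram
import Cfsg.Agent.Lib.Helper76.OFX.Alt4

/-!
# `4 ∣ rank (x - 1)` for an isometry of odd order commuting with `α`, `α² = a` a non-square

`four_dvd_rank_sub_one`: generic symmetric non-degenerate bilinear `f` (as a function).
`four_dvd_rank_plus`: the case `f = polar (quadFormPlus d F)`.
-/

set_option autoImplicit false

namespace Cfsg.Agent.Lib.Helper76.OFX

open Module Matrix

universe u v

theorem pow_mulVec_neg {F : Type u} [Field F] {ι : Type v} [Fintype ι] [DecidableEq ι]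
    (X : Matrix ι ι F) (w : ι → F) (h : X *ᵥ w = -w) (n : ℕ) :
    (X ^ n) *ᵥ w = (-1 : F) ^ n • w := by
  induction n with
  | zero => simp
  | succ k ih =>
    rw [pow_succ, ← Matrix.mulVec_mulVec, h, Matrix.mulVec_neg, ih, pow_succ, mul_smul]
    simp

theorem four_dvd_rank_sub_one {F : Type u} [Field F] (h2 : (2 : F) ≠ 0) {ι : Type v} [Fintype ι]
    [DecidableEq ι] (f : (ι → F) → (ι → F) → F)
    (hadd : ∀ u v w, f u (v + w) = f u v + f u w)
    (hsmul : ∀ (c : F) u v, f u (c • v) = c * f u v)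
    (hsymm : ∀ u v, f u v = f v u)
    (hnd : ∀ u, (∀ v, f u v = 0) → u = 0)
    (a : F) (ha : ¬ IsSquare a) (A X : Matrix ι ι F) (hA : A * A = a • (1 : Matrix ι ι F))
    (hAf : ∀ u v, f (A *ᵥ u) v = f u (A *ᵥ v))
    (hX : ∀ u v, f (X *ᵥ u) (X *ᵥ v) = f u v) (n : ℕ) (hn : Odd n) (hXn : X ^ n = 1)
    (hXA : X * A = A * X) : 4 ∣ (X - 1).rank := by
  have hadd' : ∀ u v w, f (u + v) w = f u w + f v w := by
    intro u v w
    rw [hsymm, hadd, hsymm w u, hsymm w v]
  have hsmul' : ∀ (c : F) u v, f (c • u) v = c * f u v := by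
    intro c u v
    rw [hsymm, hsmul, hsymm]
  obtain ⟨m, rfl⟩ := hn
  set Y : Matrix ι ι F := X ^ (2 * m) with hY
  have hXY : X * Y = 1 := by rw [hY, ← pow_succ', hXn]
  have hYX : Y * X = 1 := by rw [hY, ← pow_succ, hXn]
  have hYA : Y * A = A * Y := by
    have : Commute X A := hXA
    exact (this.pow_left (2 * m)).eq
  -- adjoint of `X` is `Y`
  have hadj : ∀ u v, f (X *ᵥ u) v = f u (Y *ᵥ v) := by
    intro u v
    have := hX u (Y *ᵥ v)
    rw [Matrix.mulVec_mulVec, hXY, Matrix.one_mulVec] at this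
    exact this
  have hadj' : ∀ u v, f (Y *ᵥ u) v = f u (X *ᵥ v) := by
    intro u v
    have := hX (Y *ᵥ u) v
    rw [Matrix.mulVec_mulVec, hXY, Matrix.one_mulVec] at this
    exact this.symm
  have hfzero : ∀ u, f u 0 = 0 := by
    intro u
    have := hsmul 0 u 0
    rw [zero_mul, zero_smul] at this
    exact this
  have hfsub : ∀ u v w, f u (v - w) = f u v - f u w := by
    intro u v w
    have := hadd u (v - w) w
    rw [sub_add_cancel] at this
    rw [this, add_sub_cancel_right]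
  have hfsub' : ∀ u v w, f (u - v) w = f u w - f v w := by
    intro u v w
    rw [hsymm, hfsub, hsymm w u, hsymm w v]
  -- the bilinear form `C u v = f u ((X - Y) v)`
  let C : LinearMap.BilinForm F (ι → F) :=
    LinearMap.mk₂ F (fun u v => f u ((X - Y) *ᵥ v))
      (fun u u' v => hadd' u u' _)
      (fun c u v => by rw [hsmul', smul_eq_mul])
      (fun u v v' => by rw [Matrix.mulVec_add, hadd])
      (fun c u v => by rw [Matrix.mulVec_smul, hsmul, smul_eq_mul])
  have hC : ∀ u v, C u v = f u ((X - Y) *ᵥ v) := fun u v => rfl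
  have hCalt : C.IsAlt := by
    intro u
    show C u u = 0
    rw [hC, Matrix.sub_mulVec, hfsub, hsymm u (Y *ᵥ u), hadj', sub_self]
  let α : (ι → F) →ₗ[F] (ι → F) := A.mulVecLin
  have hα : ∀ x, α (α x) = a • x := by
    intro x
    show A *ᵥ (A *ᵥ x) = a • x
    rw [Matrix.mulVec_mulVec, hA, Matrix.smul_mulVec, Matrix.one_mulVec]
  have hsa : ∀ x y, C (α x) y = C x (α y) := by
    intro x y
    show C (A *ᵥ x) y = C x (A *ᵥ y)
    rw [hC, hC, hAf, Matrix.mulVec_mulVec, Matrix.mulVec_mulVec, Matrix.mul_sub, Matrix.sub_mul,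
      hXA, hYA]
  obtain ⟨k, hk⟩ := alt4_finrank_aux F h2 a ha (finrank F (ι → F)) (ι → F) C α hCalt hα hsa rfl
  have hkerC : LinearMap.ker C = LinearMap.ker ((X - 1).mulVecLin) := by
    ext x
    rw [LinearMap.mem_ker, LinearMap.mem_ker, Matrix.mulVecLin_apply]
    constructor
    · intro hx
      -- `f ((Y - X) x) v = 0` for all `v`
      have h1 : (Y - X) *ᵥ x = 0 := by
        apply hnd
        intro w
        have h3 := LinearMap.congr_fun hx w
        rw [LinearMap.zero_apply, hC, Matrix.sub_mulVec, hfsub, ← hadj', ← hadj] at h3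
        rw [Matrix.sub_mulVec, hfsub', h3]
      have h4 : Y *ᵥ x = X *ᵥ x := by
        rw [Matrix.sub_mulVec] at h1
        exact sub_eq_zero.mp h1
      have h5 : X *ᵥ (X *ᵥ x) = x := by
        rw [← h4, Matrix.mulVec_mulVec, hXY, Matrix.one_mulVec]
      have h6 : X *ᵥ ((X - 1) *ᵥ x) = -((X - 1) *ᵥ x) := by
        rw [Matrix.sub_mulVec, Matrix.one_mulVec, Matrix.mulVec_sub, h5, neg_sub]
      have h7 := pow_mulVec_neg X _ h6 (2 * m + 1)
      rw [hXn, Matrix.one_mulVec, Odd.neg_one_pow ⟨m, rfl⟩, neg_smul, one_smul] at h7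
      have h8 : (2 : F) • ((X - 1) *ᵥ x) = 0 := by
        rw [two_smul]
        nth_rw 1 [h7]
        exact neg_add_cancel _
      rcases smul_eq_zero.mp h8 with h | h
      · exact absurd h h2
      · exact h
    · intro hx
      have h1 : X *ᵥ x = x := by
        rw [Matrix.sub_mulVec, Matrix.one_mulVec] at hx
        exact sub_eq_zero.mp hx
      have h2' : Y *ᵥ x = x := by
        nth_rw 1 [← h1]
        rw [Matrix.mulVec_mulVec, hYX, Matrix.one_mulVec]
      refine LinearMap.ext fun w => ?_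
      rw [LinearMap.zero_apply, hC, Matrix.sub_mulVec, hfsub, ← hadj', ← hadj, h1, h2', sub_self]
  have hrn := LinearMap.finrank_range_add_finrank_ker ((X - 1).mulVecLin)
  have hrank : (X - 1).rank = finrank F (LinearMap.range (X - 1).mulVecLin) := rfl
  rw [hkerC] at hk
  refine ⟨k, ?_⟩
  omega

theorem four_dvd_rank_plus {F : Type u} [Field F] (h2 : (2 : F) ≠ 0) (d : ℕ) (a : F)
    (ha : ¬ IsSquare a) (A X : Matrix (Fin d ⊕ Fin d) (Fin d ⊕ Fin d) F)
    (hA : A * A = a • (1 : Matrix (Fin d ⊕ Fin d) (Fin d ⊕ Fin d) F))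
    (hAf : ∀ u v, QuadraticMap.polar (Cfsg.quadFormPlus d F) (A *ᵥ u) v
      = QuadraticMap.polar (Cfsg.quadFormPlus d F) u (A *ᵥ v))
    (hX : ∀ v, Cfsg.quadFormPlus d F (X *ᵥ v) = Cfsg.quadFormPlus d F v)
    (n : ℕ) (hn : Odd n) (hXn : X ^ n = 1) (hXA : X * A = A * X) : 4 ∣ (X - 1).rank := by
  have hS : Cfsg.Agent.Lib.Helper44.swapBlocks d F * Cfsg.Agent.Lib.Helper44.swapBlocks d F = 1 := by
    unfold Cfsg.Agent.Lib.Helper44.swapBlocks
    rw [Matrix.fromBlocks_multiply]
    simp [← Matrix.fromBlocks_one]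
  refine four_dvd_rank_sub_one h2 (QuadraticMap.polar (Cfsg.quadFormPlus d F)) ?_ ?_ ?_ ?_ a ha A X
    hA hAf ?_ n hn hXn hXA
  · intro u v w
    rw [Cfsg.Agent.Lib.Helper44.polar_quadFormPlus, Cfsg.Agent.Lib.Helper44.polar_quadFormPlus,
      Cfsg.Agent.Lib.Helper44.polar_quadFormPlus, map_add]
  · intro c u v
    rw [Cfsg.Agent.Lib.Helper44.polar_quadFormPlus, Cfsg.Agent.Lib.Helper44.polar_quadFormPlus,
      map_smul, smul_eq_mul]
  · intro u v
    exact QuadraticMap.polar_comm _ u v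
  · intro u hu
    funext j
    have h1 := hu (Cfsg.Agent.Lib.Helper44.swapBlocks d F *ᵥ Pi.single j 1)
    rw [Cfsg.Agent.Lib.Helper44.polar_quadFormPlus] at h1
    unfold Cfsg.Agent.Lib.Helper44.plusPolar at h1
    rw [Matrix.toBilin'_apply', Matrix.mulVec_mulVec, hS, Matrix.one_mulVec,
      dotProduct_single, mul_one] at h1
    exact h1
  · intro u v
    unfold QuadraticMap.polar
    rw [← Matrix.mulVec_add, hX, hX, hX]

end Cfsg.Agent.Lib.Helper76.OFX
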