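import Mathlib
import Cfsg.Agent.Lib.Helper95.OFX.Defs
import Cfsg.Agent.Lib.Helper76.OFX.Mod4

/-!
# OFX package [MOD4]
-/

set_option autoImplicit false

namespace Cfsg.Agent.Lib.Helper76.OFX

open Matrix Cfsg.Agent.Lib.Helper95.OFX

universe u

theorem anti_pow {F : Type u} [Field F] {ι : Type} [Fintype ι] [DecidableEq ι]
    (Y α : Matrix ι ι F) (h : Y * α = -(α * Y)) (k : ℕ) :
    Y ^ k * α = (-1 : F) ^ k • (α * Y ^ k) := by
  induction k with
  | zero => simp
  | succ k ih =>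
    rw [pow_succ, mul_assoc, h, mul_neg, ← mul_assoc, ih, pow_succ, Matrix.smul_mul, mul_assoc,
      mul_smul]
    simp

theorem pkgMod4 : PkgMod4.{u} := by
  intro F _ _ hodd d a α ha hα x g hx hg r hr hxr hPM
  have h2 : (2 : F) ≠ 0 := Cfsg.Agent.Lib.Helper44.two_ne_zero_of_odd_card hodd
  set y : GL (OI d) F := g⁻¹ * x * g with hy
  have hyiso : y ∈ Cfsg.isometryGroup F (Cfsg.quadFormPlus d F) :=
    mul_mem (mul_mem (inv_mem hg) hx) hg
  have hxr' : x ^ r = 1 := by
    apply Units.ext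
    rw [Units.val_pow_eq_pow_val]
    exact hxr
  have hyr' : y ^ r = 1 := by
    have h1 : y = g⁻¹ * x * g⁻¹⁻¹ := by rw [inv_inv]
    rw [h1, conj_pow, hxr', mul_one, mul_inv_cancel]
  have hyr : (y : Matrix (OI d) (OI d) F) ^ r = 1 := by
    rw [← Units.val_pow_eq_pow_val, hyr']
    rfl
  have hcomm : (y : Matrix (OI d) (OI d) F) * α = α * (y : Matrix (OI d) (OI d) F) := by
    rcases hPM with h | h
    · exact h
    · have h1 := anti_pow (y : Matrix (OI d) (OI d) F) α h r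
      rw [hyr, Matrix.one_mul, Matrix.mul_one, Odd.neg_one_pow hr, neg_smul, one_smul] at h1
      rw [h]
      nth_rw 1 [h1]
      rw [neg_mul, neg_neg]
  have h4 := four_dvd_rank_plus h2 d a ha α (y : Matrix (OI d) (OI d) F) hα.1 hα.2
    (fun v => hyiso v v) r hr hyr hcomm
  have hrank : ((y : Matrix (OI d) (OI d) F) - 1).rank
      = ((x : Matrix (OI d) (OI d) F) - 1).rank := by
    have h1 : (y : Matrix (OI d) (OI d) F) - 1
        = ((g⁻¹ : GL (OI d) F) : Matrix (OI d) (OI d) F) * ((x : Matrix (OI d) (OI d) F) - 1)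
          * (g : Matrix (OI d) (OI d) F) := by
      rw [hy, Units.val_mul, Units.val_mul, Matrix.mul_sub, Matrix.sub_mul, Matrix.mul_one,
        ← Units.val_mul g⁻¹ g, inv_mul_cancel]
      rfl
    have hg1 : IsUnit (g : Matrix (OI d) (OI d) F).det :=
      (Matrix.isUnit_iff_isUnit_det _).mp g.isUnit
    have hg2 : IsUnit ((g⁻¹ : GL (OI d) F) : Matrix (OI d) (OI d) F).det :=
      (Matrix.isUnit_iff_isUnit_det _).mp (g⁻¹).isUnit
    rw [h1, Matrix.rank_mul_eq_left_of_isUnit_det _ _ hg1,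
      Matrix.rank_mul_eq_right_of_isUnit_det _ _ hg2]
  rw [← hrank]
  exact h4

end Cfsg.Agent.Lib.Helper76.OFX
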