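import Mathlib
import Cfsg.Agent.Lib.Helper95.OFX.Defs
import Cfsg.Agent.Lib.Helper76.OFX.DerP
import Cfsg.Agent.Lib.Helper45.OrthOrder

/-!
# OFX package [IDX]
-/

set_option autoImplicit false

namespace Cfsg.Agent.Lib.Helper76.OFX

open Matrix Cfsg.Agent.Lib.Helper95.OFX

universe u

theorem inv_conj_of {F : Type u} [Field F] {n : Type} [Fintype n] [DecidableEq n]
    (w : GL n F) (A B : Matrix n n F)
    (h : A * (w : Matrix n n F) = (w : Matrix n n F) * B) :
    ((w⁻¹ : GL n F) : Matrix n n F) * A = B * ((w⁻¹ : GL n F) : Matrix n n F) := by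
  calc ((w⁻¹ : GL n F) : Matrix n n F) * A
      = ((w⁻¹ : GL n F) : Matrix n n F) * A
          * ((w : Matrix n n F) * ((w⁻¹ : GL n F) : Matrix n n F)) := by
        rw [← Units.val_mul, mul_inv_cancel, Units.val_one, mul_one]
    _ = ((w⁻¹ : GL n F) : Matrix n n F) * (A * (w : Matrix n n F))
          * ((w⁻¹ : GL n F) : Matrix n n F) := by simp only [mul_assoc]
    _ = ((w⁻¹ : GL n F) : Matrix n n F) * ((w : Matrix n n F) * B)
          * ((w⁻¹ : GL n F) : Matrix n n F) := by rw [h]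
    _ = (((w⁻¹ : GL n F) : Matrix n n F) * (w : Matrix n n F)) * B
          * ((w⁻¹ : GL n F) : Matrix n n F) := by simp only [mul_assoc]
    _ = B * ((w⁻¹ : GL n F) : Matrix n n F) := by
        rw [← Units.val_mul, inv_mul_cancel, Units.val_one, one_mul]

theorem pkgIdx : PkgIdx.{u} := by
  intro hNorm hNF hKSub F _ _ hodd d hd K a α ha hα hK r hr hr2 hdvd
  classical
  have : Fact r.Prime := ⟨hr⟩
  have h2 : (2 : F) ≠ 0 := Cfsg.Agent.Lib.Helper44.two_ne_zero_of_odd_card hodd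
  obtain ⟨α₁, S, hα₁, hSO, hScomm, hScard⟩ := hKSub hodd d hd a ha
  obtain ⟨g, hg, hgα⟩ := hNF hodd d a α ha hα
  obtain ⟨g₁, hg₁, hgα₁⟩ := hNF hodd d a α₁ ha hα₁
  set O := Cfsg.isometryGroup F (Cfsg.quadFormPlus d F) with hO
  set Ω := Cfsg.Geo.omegaGL (Cfsg.quadFormPlus d F) with hΩ
  set N := Cfsg.Geo.subalgebraNormalizer K with hN
  have hΩO : Ω ≤ O := by
    rw [hΩ]
    unfold Cfsg.Geo.omegaGL
    exact Subgroup.map_subtype_le _
  let h : GL (OI d) F := g * g₁⁻¹
  have hh : h ∈ O := mul_mem hg (inv_mem hg₁)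
  have hα_h : α * (h : Matrix (OI d) (OI d) F) = (h : Matrix (OI d) (OI d) F) * α₁ := by
    have e1 := inv_conj_of g₁ α₁ (alpha0 d a) hgα₁
    show α * ((g * g₁⁻¹ : GL (OI d) F) : Matrix (OI d) (OI d) F)
      = ((g * g₁⁻¹ : GL (OI d) F) : Matrix (OI d) (OI d) F) * α₁
    rw [Units.val_mul, ← mul_assoc, hgα, mul_assoc, ← e1, mul_assoc]
  have hα_h' := inv_conj_of h α α₁ hα_h
  let S' : Subgroup (GL (OI d) F) := S.map (MulAut.conj h).toMonoidHom
  have hS'mem : ∀ x ∈ S', ∃ s ∈ S, x = h * s * h⁻¹ := by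
    intro x hx
    obtain ⟨s, hs, rfl⟩ := hx
    exact ⟨s, hs, rfl⟩
  have hS'O : S' ≤ O := by
    intro x hx
    obtain ⟨s, hs, rfl⟩ := hS'mem x hx
    exact mul_mem (mul_mem hh (hSO hs)) (inv_mem hh)
  have hS'N : S' ≤ N := by
    intro x hx
    obtain ⟨s, hs, rfl⟩ := hS'mem x hx
    rw [hN, hNorm hodd d K a α ha hα.1 hK]
    left
    have hsc := hScomm s hs
    rw [Units.val_mul, Units.val_mul]
    calc (h : Matrix (OI d) (OI d) F) * (s : Matrix (OI d) (OI d) F)
          * ((h⁻¹ : GL (OI d) F) : Matrix (OI d) (OI d) F) * α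
        = (h : Matrix (OI d) (OI d) F) * (s : Matrix (OI d) (OI d) F)
          * (((h⁻¹ : GL (OI d) F) : Matrix (OI d) (OI d) F) * α) := by simp only [mul_assoc]
      _ = (h : Matrix (OI d) (OI d) F) * ((s : Matrix (OI d) (OI d) F) * α₁)
          * ((h⁻¹ : GL (OI d) F) : Matrix (OI d) (OI d) F) := by
          rw [hα_h']; simp only [mul_assoc]
      _ = ((h : Matrix (OI d) (OI d) F) * α₁) * (s : Matrix (OI d) (OI d) F)
          * ((h⁻¹ : GL (OI d) F) : Matrix (OI d) (OI d) F) := by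
          rw [hsc]; simp only [mul_assoc]
      _ = α * ((h : Matrix (OI d) (OI d) F) * (s : Matrix (OI d) (OI d) F)
          * ((h⁻¹ : GL (OI d) F) : Matrix (OI d) (OI d) F)) := by
          rw [← hα_h]; simp only [mul_assoc]
  have hS'card : Nat.card S' = oKOrd (Fintype.card F) d := by
    rw [← hScard]
    exact Subgroup.card_map_of_injective (MulAut.conj h).injective
  have hOcard : Nat.card O = oPlusOrd (Fintype.card F) d :=
    Cfsg.Agent.Lib.Helper45.card_GO_plus rfl d hd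
  -- Sylow subgroup of `S'`
  obtain ⟨P⟩ : Nonempty (Sylow r S') := inferInstance
  have hPcard : Nat.card P = r ^ padicValNat r (Nat.card S') := by
    rw [Sylow.card_eq_multiplicity, Nat.factorization_def _ hr]
  let R : Subgroup (GL (OI d) F) := (P : Subgroup S').map S'.subtype
  have hRcard : Nat.card R = r ^ padicValNat r (Nat.card S') := by
    rw [← hPcard]
    exact Subgroup.card_map_of_injective S'.subtype_injective
  have hRS' : R ≤ S' := Subgroup.map_subtype_le _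
  have hRodd : Odd (Nat.card R) := by
    rw [hRcard]
    exact (hr.odd_of_ne_two hr2).pow
  have hRΩ : R ≤ Ω := by
    intro x hx
    have h1 : x ^ Nat.card R = 1 := by
      have := pow_card_eq_one' (G := R) (x := ⟨x, hx⟩)
      exact congrArg Subtype.val this
    exact mem_omegaGL_plus_of_odd h2 d x (hS'O (hRS' hx)) _ hRodd h1
  have hRNΩ : R ≤ N ⊓ Ω := le_inf (hRS'.trans hS'N) hRΩ
  have hdiv1 : r ^ padicValNat r (Nat.card S') ∣ Nat.card (N ⊓ Ω : Subgroup (GL (OI d) F)) := by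
    rw [← hRcard]
    exact Subgroup.card_dvd_of_le hRNΩ
  have hmul : Nat.card (N ⊓ Ω : Subgroup (GL (OI d) F)) * N.relIndex Ω = Nat.card Ω := by
    rw [← Subgroup.inf_relIndex_right N Ω, ← Subgroup.relIndex_bot_left (N ⊓ Ω),
      ← Subgroup.relIndex_bot_left Ω]
    exact Subgroup.relIndex_mul_relIndex ⊥ (N ⊓ Ω) Ω bot_le inf_le_right
  have hdiv2 : r ^ (padicValNat r (Nat.card S') + 1) ∣ Nat.card O := by
    have h3 : r ^ (padicValNat r (Nat.card S') + 1) ∣ Nat.card Ω := by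
      rw [← hmul, pow_succ]
      exact Nat.mul_dvd_mul hdiv1 hdvd
    exact h3.trans (Subgroup.card_dvd_of_le hΩO)
  have hO0 : Nat.card O ≠ 0 := Nat.card_pos.ne'
  have h5 := (padicValNat_dvd_iff_le hO0).mp hdiv2
  rw [hS'card, hOcard] at h5
  exact h5

end Cfsg.Agent.Lib.Helper76.OFX
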